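import Cfsg.Agent.Chev.BorelTits.Main
import Cfsg.Agent.Chev.ParabolicCentralizer
import Cfsg.Agent.PReduced.Basic

/-!
# Elements of order prime to `p` centralising a radical `p`-subgroup are trivial
-/

set_option autoImplicit false
set_option linter.unusedSectionVars false

namespace CfsgLib.Chev.Sys

open Cfsg.Lie Matrix

universe u

variable {D : ChevalleyDatum} (S : Sys.{u} D) {F : Type u} [Field F] [Finite F]

include S in
theorem eq_one_of_centralizes_radical (G : Geo D) (h0 : 0 < D.rank) (p : ℕ) [Fact p.Prime] [CharP F p]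
    {Q : Subgroup (D.group F)} (hQ : IsPGroup p Q) (hne : Q ≠ ⊥)
    (hrad : (Cfsg.pCore p (Subgroup.normalizer (Q : Set (D.group F)))).map
      (Subgroup.normalizer (Q : Set (D.group F))).subtype = Q)
    {x : D.group F} (hx : ∀ d ∈ Q, d * x = x * d) (hreg : ¬ p ∣ orderOf x) : x = 1 := by
  haveI := finite_GL (D := D) (F := F)
  haveI : Fintype F := Fintype.ofFinite F
  set R : Subgroup (GL D.Idx F) := Q.map (D.group F).subtype with hR
  have hRG : R ≤ D.group F := Subgroup.map_subtype_le _
  have hRne : R ≠ ⊥ := fun h => hne ((Subgroup.map_eq_bot_iff_of_injective _ (D.group F).subtype_injective).1 h)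
  obtain ⟨g, hg, J, hJ, hN, hle⟩ := S.borel_tits G h0 p hRG (hQ.map _) hRne
  set V : Subgroup (D.group F) :=
    ((D.unipotentRadical F J).map (MulAut.conj g).toMonoidHom).subgroupOf (D.group F) with hV
  have hVmem : ∀ y : D.group F, y ∈ V ↔ g⁻¹ * y * g ∈ D.unipotentRadical F J := fun y => by
    rw [hV, Subgroup.mem_subgroupOf, Subgroup.mem_map]
    constructor
    · rintro ⟨z, hz, e⟩
      rw [← e]
      simpa [mul_assoc] using hz
    · exact fun h => ⟨_, h, by show g * (g⁻¹ * y * g) * g⁻¹ = y; group⟩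
  have hQV : Q ≤ V := fun y hy => by
    rw [hV, Subgroup.mem_subgroupOf]
    exact hle (Subgroup.mem_map_of_mem _ hy)
  have hVp : IsPGroup p V := by
    obtain ⟨k, -, hk⟩ := FiniteField.card F p
    have hU : IsPGroup p (D.posUnipotent F) :=
      IsPGroup.of_card (n := (k : ℕ) * (D.nroots / 2)) (by
        rw [S.card_pos, Nat.card_eq_fintype_card, hk, pow_mul])
    have hr : IsPGroup p (D.unipotentRadical F J) :=
      hU.to_le (by rw [S.unipotentRadical_eq G]; exact S.genBy_le_pos _)
    exact ((hr.map _).to_le inf_le_left).of_equiv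
      (Subgroup.equivMapOfInjective _ _ (D.group F).subtype_injective |>.trans
        (MulEquiv.subgroupCongr (by rw [hV, Subgroup.subgroupOf_map_subtype]))).symm
  -- the normaliser of `Q` normalises `V`
  set N := Subgroup.normalizer (Q : Set (D.group F)) with hNdef
  have hNP : ∀ n ∈ N, g⁻¹ * (n : GL D.Idx F) * g ∈ D.parabolicSubgroup F J := by
    intro n hn
    have : (n : GL D.Idx F) ∈ Subgroup.normalizer (R : Set (GL D.Idx F)) ⊓ D.group F :=
      Subgroup.mem_inf.2 ⟨Subgroup.le_normalizer_map (D.group F).subtype (Subgroup.mem_map_of_mem _ hn), n.2⟩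
    obtain ⟨z, hz, e⟩ := Subgroup.mem_map.1 (hN this)
    rw [← e]
    simpa [mul_assoc] using hz
  have hNV : N ≤ Subgroup.normalizer (V : Set (D.group F)) := fun n hn =>
    Subgroup.mem_normalizer_iff.2 fun y => by
      have hP := S.parabolic_le_normalizer G J (hNP n hn)
      rw [hVmem, hVmem, Subgroup.mem_normalizer_iff.1 hP]
      push_cast
      rw [show g⁻¹ * (n : GL D.Idx F) * g * (g⁻¹ * y * g) * (g⁻¹ * n * g)⁻¹ = g⁻¹ * (n * y * (n : GL D.Idx F)⁻¹) * g by group]
  -- hence `V` is contained in `Q`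
  have hVQ : V ≤ Q := by
    by_contra hlt
    set W := N ⊓ V with hW
    have hQW : Q ≤ W := le_inf Subgroup.le_normalizer hQV
    have hWQ : W ≤ Q := by
      conv_rhs => rw [← hrad]
      refine CfsgLib.PReduced.le_pCoreOf inf_le_left ?_ (hVp.to_le inf_le_right)
      intro n hn
      refine Subgroup.mem_normalizer_iff.2 fun y => ?_
      simp only [hW, Subgroup.mem_inf]
      rw [Subgroup.mem_normalizer_iff.1 (hNV hn) y]
      refine and_congr_left fun _ => ⟨fun h => mul_mem (mul_mem hn h) (inv_mem hn), fun h => ?_⟩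
      have := mul_mem (mul_mem (inv_mem hn) h) hn
      simpa [mul_assoc] using this
    -- normalisers grow in `p`-groups
    haveI := hVp.isNilpotent
    set Q' := Q.subgroupOf V with hQ'
    have hlt' : Q' < ⊤ := by
      rw [lt_top_iff_ne_top, ne_eq, Subgroup.subgroupOf_eq_top]
      exact hlt
    obtain ⟨y, hy, hyn⟩ := SetLike.exists_of_lt (Group.normalizerCondition_of_isNilpotent Q' hlt')
    apply hyn
    rw [hQ', Subgroup.mem_subgroupOf]
    refine hWQ (Subgroup.mem_inf.2 ⟨Subgroup.mem_normalizer_iff.2 fun z => ?_, y.2⟩)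
    have h := Subgroup.mem_normalizer_iff.1 hy
    constructor
    · intro hz
      have := (h ⟨z, hQV hz⟩).1 (Subgroup.mem_subgroupOf.2 hz)
      simpa [hQ', Subgroup.mem_subgroupOf] using this
    · intro hz
      have hzV : z ∈ V := by
        have := mul_mem (mul_mem (inv_mem y.2) (hQV hz)) y.2
        simpa [mul_assoc] using this
      have := (h ⟨z, hzV⟩).2 (by simpa [hQ', Subgroup.mem_subgroupOf] using hz)
      simpa [hQ', Subgroup.mem_subgroupOf] using this
  -- so `x` is unipotent
  have hxN : x ∈ N := Subgroup.mem_normalizer_iff.2 fun d => by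
    constructor
    · intro hd
      rw [← hx d hd, mul_inv_cancel_right]; exact hd
    · intro hd
      have := hx _ hd
      have e : d = x * d * x⁻¹ := by
        have h2 : x * d = x * (x * d * x⁻¹) := by rw [← this]; group
        exact mul_left_cancel h2
      rw [e]; exact hd
  have hxc : g⁻¹ * (x : GL D.Idx F) * g ∈ Subgroup.centralizer (D.unipotentRadical F J : Set (GL D.Idx F)) := by
    refine Subgroup.mem_centralizer_iff.2 fun z hz => ?_
    have hzG : g * z * g⁻¹ ∈ D.group F :=
      mul_mem (mul_mem hg (S.parabolic_le_group J (by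
        rw [S.unipotentRadical_eq G] at hz
        exact Subgroup.mem_sup_left (Subgroup.mem_sup_left (S.genBy_le_pos _ hz))))) (inv_mem hg)
    have hzV : (⟨_, hzG⟩ : D.group F) ∈ V := (hVmem _).2 (by simpa [mul_assoc] using hz)
    have e := congrArg (fun a : D.group F => g⁻¹ * (a : GL D.Idx F) * g) (hx _ (hVQ hzV))
    simpa [mul_assoc] using e
  have hxU := S.centralizer_radical_le G hJ (hNP x hxN) hxc
  obtain ⟨k, -, hk⟩ := FiniteField.card F p
  have hU : IsPGroup p (D.posUnipotent F) :=
    IsPGroup.of_card (n := (k : ℕ) * (D.nroots / 2)) (by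
      rw [S.card_pos, Nat.card_eq_fintype_card, hk, pow_mul])
  obtain ⟨m, hm⟩ := IsPGroup.iff_orderOf.1 hU ⟨_, hxU⟩
  rw [Subgroup.orderOf_mk] at hm
  have hord : orderOf (g⁻¹ * (x : GL D.Idx F) * g) = orderOf x := by
    have := (MulAut.conj g⁻¹).orderOf_eq (x : GL D.Idx F)
    simpa [Subgroup.orderOf_coe] using this
  rw [hord] at hm
  rw [← orderOf_eq_one_iff, hm]
  rcases Nat.eq_zero_or_pos m with rfl | hm0
  · exact pow_zero p
  · exact absurd (hm ▸ dvd_pow_self p hm0.ne') hreg

end CfsgLib.Chev.Sys
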