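import Cfsg.Agent.Chev.BorelTits.Main
import Cfsg.Agent.Chev.Simple
import Cfsg.Agent.PReduced.Basic

/-!
# Radical subgroups, conjugate unipotent radicals and orders of parabolic subgroups

* a stable radical `p`-subgroup above a fixed `p`-element;
* a radical `p`-subgroup of a Chevalley group in characteristic `p` is a conjugate of some `U_J`;
* conjugate standard unipotent radicals are equal;
* `|P_J| = |H| q^N Σ_{w ∈ W_J} q^{l(w)}`.
-/

set_option autoImplicit false
set_option linter.unusedSectionVars false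

namespace CfsgLib.StableRadical

open Subgroup

variable {G : Type*} [Group G] [Finite G] {p : ℕ}

/-- An injective endomorphism fixing a `p`-element `a` and a subgroup `C` of its centraliser stabilises a
radical `p`-subgroup containing `a` and normalised by `C`. -/
theorem exists_stable_radical (σ : G →* G) (hσ : Function.Injective σ) {a : G}
    (ha : IsPGroup p (zpowers a)) (haσ : σ a = a) (C : Subgroup G)
    (hCa : ∀ c ∈ C, c * a = a * c) :
    ∃ R : Subgroup G, a ∈ R ∧ IsPGroup p R ∧ R.map σ = R ∧ C ≤ normalizer (R : Set G) ∧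
      Cfsg.pCoreOf p (normalizer (R : Set G)) = R := by
  classical
  set T : Set (Subgroup G) := {R | a ∈ R ∧ IsPGroup p R ∧ R.map σ = R ∧ C ≤ normalizer (R : Set G)}
    with hT
  have hne : T.Nonempty := by
    refine ⟨zpowers a, mem_zpowers a, ha, by rw [MonoidHom.map_zpowers, haσ], fun c hc => ?_⟩
    have e : ∀ c ∈ C, ∀ x ∈ zpowers a, c * x * c⁻¹ = x := by
      intro c hc x hx
      obtain ⟨k, rfl⟩ := mem_zpowers_iff.1 hx
      rw [(Commute.zpow_right (hCa c hc) k).eq, mul_inv_cancel_right]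
    refine mem_normalizer_iff.2 fun x => ⟨fun hx => by rwa [e c hc x hx], fun hx => ?_⟩
    have := e _ (inv_mem hc) _ hx
    rw [show c⁻¹ * (c * x * c⁻¹) * c⁻¹⁻¹ = x by group] at this
    rwa [this]
  obtain ⟨R, hR⟩ := Set.Finite.exists_maximal (Set.toFinite T) hne
  obtain ⟨haR, hRp, hRσ, hRC⟩ := hR.1
  refine ⟨R, haR, hRp, hRσ, hRC, ?_⟩
  set N := normalizer (R : Set G) with hN
  have hRle : R ≤ Cfsg.pCoreOf p N :=
    CfsgLib.PReduced.le_pCoreOf le_normalizer le_rfl hRp
  let e : G ≃* G := MulEquiv.ofBijective σ ⟨hσ, Finite.surjective_of_injective hσ⟩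
  have hNσ : N.map σ = N := by
    have h := Subgroup.map_normalizer_eq_of_bijective (R : Subgroup G) (f := σ)
      ⟨hσ, Finite.surjective_of_injective hσ⟩
    rw [hRσ] at h
    exact h
  set R' := Cfsg.pCoreOf p N with hR'
  have hR'σ : R'.map σ = R' := by
    have hle : R'.map σ ≤ R' := by
      refine CfsgLib.PReduced.le_pCoreOf ?_ ?_ ((CfsgLib.PReduced.isPGroup_pCoreOf N).map σ)
      · exact le_of_le_of_eq (map_mono (CfsgLib.PReduced.pCoreOf_le N)) hNσ
      · intro n hn
        rw [← hNσ] at hn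
        obtain ⟨n', hn', rfl⟩ := hn
        exact Subgroup.le_normalizer_map σ (mem_map_of_mem σ (CfsgLib.PReduced.le_normalizer_pCoreOf N hn'))
    refine eq_of_le_of_card_ge hle ?_
    rw [Nat.card_congr (Subgroup.equivMapOfInjective R' σ hσ).toEquiv]
  have : R' ∈ T := ⟨hRle haR, CfsgLib.PReduced.isPGroup_pCoreOf N, hR'σ,
    hRC.trans (CfsgLib.PReduced.le_normalizer_pCoreOf N)⟩
  exact le_antisymm (hR.2 this hRle) hRle

end CfsgLib.StableRadical

namespace CfsgLib.Chev.Sys

open Cfsg.Lie Matrix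

universe u

variable {D : ChevalleyDatum} (S : Sys.{u} D) {F : Type u} [Field F]

section Radical

variable [Finite F]

include S in
/-- A radical `p`-subgroup is a conjugate of a standard unipotent radical. -/
theorem exists_radical_eq (G : Geo D) (h0 : 0 < D.rank) (p : ℕ) [Fact p.Prime] [CharP F p]
    {Q : Subgroup (D.group F)} (hQ : IsPGroup p Q) (hne : Q ≠ ⊥)
    (hrad : Cfsg.pCoreOf p (Subgroup.normalizer (Q : Set (D.group F))) = Q) :
    ∃ g : D.group F, ∃ J : Set ℕ, (∃ i, i < D.rank ∧ i ∉ J) ∧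
      (∀ y : D.group F, y ∈ Q ↔ ((g⁻¹ * y * g : D.group F) : GL D.Idx F) ∈ D.unipotentRadical F J) ∧
      ∀ n ∈ Subgroup.normalizer (Q : Set (D.group F)),
        ((g⁻¹ * n * g : D.group F) : GL D.Idx F) ∈ D.parabolicSubgroup F J := by
  haveI := finite_GL (D := D) (F := F)
  haveI : Fintype F := Fintype.ofFinite F
  set R : Subgroup (GL D.Idx F) := Q.map (D.group F).subtype with hR
  have hRG : R ≤ D.group F := Subgroup.map_subtype_le _
  have hRne : R ≠ ⊥ := fun h => hne ((Subgroup.map_eq_bot_iff_of_injective _ (D.group F).subtype_injective).1 h)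
  obtain ⟨g₀, hg₀, J, hJ, hN, hle⟩ := S.borel_tits G h0 p hRG (hQ.map _) hRne
  set g : D.group F := ⟨g₀, hg₀⟩ with hgdef
  set U : Subgroup (D.group F) := (D.unipotentRadical F J).subgroupOf (D.group F) with hU
  set V : Subgroup (D.group F) := U.map (MulAut.conj g).toMonoidHom with hV
  have hVmem : ∀ y : D.group F,
      y ∈ V ↔ ((g⁻¹ * y * g : D.group F) : GL D.Idx F) ∈ D.unipotentRadical F J := fun y => by
    rw [hV, Subgroup.mem_map_equiv, MulAut.conj_symm_apply, hU, Subgroup.mem_subgroupOf]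
  have hNP : ∀ n ∈ Subgroup.normalizer (Q : Set (D.group F)),
      ((g⁻¹ * n * g : D.group F) : GL D.Idx F) ∈ D.parabolicSubgroup F J := by
    intro n hn
    have : (n : GL D.Idx F) ∈ Subgroup.normalizer (R : Set (GL D.Idx F)) ⊓ D.group F :=
      Subgroup.mem_inf.2 ⟨Subgroup.le_normalizer_map (D.group F).subtype (Subgroup.mem_map_of_mem _ hn), n.2⟩
    obtain ⟨z, hz, e⟩ := Subgroup.mem_map.1 (hN this)
    push_cast
    rw [← e]
    simpa [hgdef, mul_assoc] using hz
  refine ⟨g, J, hJ, ?_, hNP⟩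
  have hQV : Q ≤ V := fun y hy => by
    obtain ⟨z, hz, e⟩ := Subgroup.mem_map.1 (hle (Subgroup.mem_map_of_mem _ hy))
    rw [hVmem]
    push_cast
    rw [show ((y : GL D.Idx F)) = (MulAut.conj g₀).toMonoidHom z from e.symm]
    simpa [hgdef, mul_assoc] using hz
  have hVp : IsPGroup p V := by
    obtain ⟨k, -, hk⟩ := FiniteField.card F p
    have hUp : IsPGroup p (D.posUnipotent F) :=
      IsPGroup.of_card (n := (k : ℕ) * (D.nroots / 2)) (by
        rw [S.card_pos, Nat.card_eq_fintype_card, hk, pow_mul])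
    have hr : IsPGroup p (D.unipotentRadical F J) :=
      hUp.to_le (by rw [S.unipotentRadical_eq G]; exact S.genBy_le_pos _)
    exact (hr.comap_of_injective (D.group F).subtype (D.group F).subtype_injective).map _
  set N := Subgroup.normalizer (Q : Set (D.group F)) with hNdef
  have hNV : N ≤ Subgroup.normalizer (V : Set (D.group F)) := fun n hn =>
    Subgroup.mem_normalizer_iff.2 fun y => by
      have hP := S.parabolic_le_normalizer G J (hNP n hn)
      rw [hVmem, hVmem, Subgroup.mem_normalizer_iff.1 hP]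
      refine iff_of_eq (congrArg (· ∈ _) ?_)
      push_cast
      group
  suffices hVQ : V = Q by intro y; rw [← hVQ, hVmem]
  refine le_antisymm ?_ hQV
  by_contra hlt
  set W := N ⊓ V with hW
  have hQW : Q ≤ W := le_inf Subgroup.le_normalizer hQV
  have hWQ : W ≤ Q := by
    conv_rhs => rw [← hrad]
    refine CfsgLib.PReduced.le_pCoreOf inf_le_left ?_ (hVp.to_le inf_le_right)
    intro n hn
    refine Subgroup.mem_normalizer_iff.2 fun y => ?_
    simp only [hW, Subgroup.mem_inf]
    rw [Subgroup.mem_normalizer_iff.1 (hNV hn) y]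
    refine and_congr_left fun _ => ⟨fun h => mul_mem (mul_mem hn h) (inv_mem hn), fun h => ?_⟩
    have := mul_mem (mul_mem (inv_mem hn) h) hn
    simpa [mul_assoc] using this
  haveI := hVp.isNilpotent
  set Q' := Q.subgroupOf V with hQ'
  have hlt' : Q' < ⊤ := by
    rw [lt_top_iff_ne_top, ne_eq, Subgroup.subgroupOf_eq_top]
    exact hlt
  obtain ⟨y, hy, hyn⟩ := SetLike.exists_of_lt (Group.normalizerCondition_of_isNilpotent Q' hlt')
  apply hyn
  rw [hQ', Subgroup.mem_subgroupOf]
  refine hWQ (Subgroup.mem_inf.2 ⟨Subgroup.mem_normalizer_iff.2 fun z => ?_, y.2⟩)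
  have h := Subgroup.mem_normalizer_iff.1 hy
  constructor
  · intro hz
    have := (h ⟨z, hQV hz⟩).1 (Subgroup.mem_subgroupOf.2 hz)
    simpa [hQ', Subgroup.mem_subgroupOf] using this
  · intro hz
    have hzV : z ∈ V := by
      have := mul_mem (mul_mem (inv_mem y.2) (hQV hz)) y.2
      simpa [mul_assoc] using this
    have := (h ⟨z, hzV⟩).2 (by simpa [hQ', Subgroup.mem_subgroupOf] using hz)
    simpa [hQ', Subgroup.mem_subgroupOf] using this

end Radical

include S in
/-- A monomial element conjugating `U_K` onto `U_J` forces `U_K = U_J`. -/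
theorem radical_eq_of_mono_conj (G : Geo D) (J K : Set ℕ) {n : GL D.Idx F}
    (hn : n ∈ D.monomialSubgroup F)
    (hc : ∀ x, x ∈ D.unipotentRadical F K ↔ n * x * n⁻¹ ∈ D.unipotentRadical F J) :
    D.unipotentRadical F K = D.unipotentRadical F J := by
  obtain ⟨L, hL, h, hh, rfl⟩ := S.mem_mono_iff.1 hn
  induction hlen : L.length using Nat.strong_induction_on generalizing L h with
  | _ m ih =>
    subst hlen
    obtain ⟨w, -, hw⟩ := S.exists_acts hn
    have hwL : w = S.wprod L := S.acts_unique hw (by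
      simpa using S.acts_mul (S.acts_diag hh) (S.acts_nw (F := F) hL))
    by_cases hall : ∀ r : Fin D.nroots, D.nroots / 2 ≤ (r : ℕ) → D.nroots / 2 ≤ (w r : ℕ)
    · have hN := S.parabolic_le_normalizer (F := F) G K
        (S.diag_le_parabolic K (S.mem_diag_of_pos hn hw hall))
      ext x
      constructor
      · intro hx
        have hx' := (Subgroup.mem_normalizer_iff.1 (inv_mem hN) x).1 hx
        have := (hc _).1 hx'
        rwa [show h * S.nw F L * ((h * S.nw F L)⁻¹ * x * (h * S.nw F L)⁻¹⁻¹) * (h * S.nw F L)⁻¹ = x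
          by group] at this
      · intro hx
        refine (Subgroup.mem_normalizer_iff.1 (inv_mem hN) x).2 ((hc _).2 ?_)
        rwa [show h * S.nw F L * ((h * S.nw F L)⁻¹ * x * (h * S.nw F L)⁻¹⁻¹) * (h * S.nw F L)⁻¹ = x
          by group]
    obtain ⟨q, hq, hneg⟩ : ∃ q, ∃ hq : q < D.rank,
        (w ⟨D.simple q, S.simple_lt hq⟩ : ℕ) < D.nroots / 2 := by
      by_contra hcon
      push Not at hcon
      apply hall
      intro r hr
      obtain ⟨g, hg⟩ := S.wprod_linear hL S.wt
      have hgi : ∀ i ∈ Finset.range D.rank, 0 < g i := by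
        intro i hi
        have hi' := Finset.mem_range.1 hi
        have h := hg ⟨D.simple i, S.simple_lt hi'⟩
        rw [← S.lev_eq, Finset.sum_eq_single_of_mem i hi (fun j hj hne => by
          rw [S.vec_simple i hi' j (Finset.mem_range.1 hj), if_neg (Ne.symm hne), mul_zero]),
          S.vec_simple i hi' i hi', if_pos rfl, mul_one] at h
        rw [← h]
        exact S.lev_pos (Fin.is_lt _) (hwL ▸ hcon i hi')
      by_contra hneg
      have h0 := S.lev_lt_zero (not_le.1 hneg)
      rw [hwL, S.lev_eq, hg r] at h0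
      exact absurd h0 (not_lt.2 (Finset.sum_nonneg fun i hi =>
        mul_nonneg (hgi i hi).le (S.vec_nonneg r r.2 hr i (Finset.mem_range.1 hi))))
    have hqK : q ∈ K := by
      by_contra hqK
      obtain ⟨c, hc'⟩ := hw ⟨D.simple q, S.simple_lt hq⟩
      have hm := (hc (S.xU (D.simple q) (1 : F))).1 (by
        rw [S.unipotentRadical_eq G]
        exact S.xU_mem_genBy (S.simple_pos q hq).1 (S.simple_lt hq)
          (fun h => hqK ((S.inJ_simple_iff hq).1 h)) 1)
      rw [hc', mul_one, S.unipotentRadical_eq G] at hm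
      exact absurd (S.pos_of_xU_mem (Fin.is_lt _) c.ne_zero (S.genBy_le_pos _ hm))
        (not_le.2 hneg)
    rw [hwL] at hneg
    obtain ⟨L', h1, h2, -, h', hh', h4⟩ := S.exists_delete (F := F) hq L hL hneg
    set nq := S.nU (F := F) (D.simple q) 1
    have hnqN : nq ∈ Subgroup.normalizer (D.unipotentRadical F K : Set (GL D.Idx F)) :=
      S.parabolic_le_normalizer G K
        (Subgroup.mem_sup_right (Subgroup.subset_closure ⟨q, hqK, hq, S.coe_nU _ _⟩))
    have e : h * S.nw F L = h * h' * S.nw F L' * nq⁻¹ := by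
      rw [mul_assoc h h', ← h4]; group
    have hn' : h * h' * S.nw F L' ∈ D.monomialSubgroup F :=
      mul_mem (S.diag_le_mono (mul_mem hh hh')) (S.nw_mem_mono h1)
    refine ih L'.length (by omega) L' h1 (h * h') (mul_mem hh hh') hn' (fun x => ?_) rfl
    rw [Subgroup.mem_normalizer_iff.1 hnqN x, hc, e]
    refine iff_of_eq (congrArg (· ∈ _) ?_)
    group

include S in
/-- Conjugate standard unipotent radicals are equal. -/
theorem radical_eq_of_conj (G : Geo D) (J K : Set ℕ) {g : GL D.Idx F} (hg : g ∈ D.group F)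
    (hc : ∀ x, x ∈ D.unipotentRadical F K ↔ g * x * g⁻¹ ∈ D.unipotentRadical F J) :
    D.unipotentRadical F K = D.unipotentRadical F J := by
  obtain ⟨b, hb, n, hn, b', hb', rfl⟩ := S.exists_bnb hg
  have hbN := S.parabolic_le_normalizer (F := F) G J (Subgroup.mem_sup_left hb)
  have hb'N := S.parabolic_le_normalizer (F := F) G K (Subgroup.mem_sup_left hb')
  refine S.radical_eq_of_mono_conj G J K hn fun x => ?_
  rw [Subgroup.mem_normalizer_iff.1 (inv_mem hb'N) x, hc, Subgroup.mem_normalizer_iff.1 hbN (n * x * n⁻¹)]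
  refine iff_of_eq (congrArg (· ∈ _) ?_)
  group

include S in
/-- A fundamental root subgroup lies in `U_J` exactly for the nodes outside `J`. -/
theorem simple_mem_radical_iff (G : Geo D) (J : Set ℕ) {i : ℕ} (hi : i < D.rank) :
    S.xU (D.simple i) (1 : F) ∈ D.unipotentRadical F J ↔ i ∉ J := by
  constructor
  · intro h hJ
    have h2 : S.xU (D.simple i) (1 : F) ∈ D.unipotentRadical F J ⊓ D.leviSubgroup F J :=
      Subgroup.mem_inf.2 ⟨h, S.xU_mem_levi G (S.inJ_simple hi hJ) 1⟩
    rw [S.radical_inf_levi G, Subgroup.mem_bot] at h2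
    exact S.xU_ne_one (S.simple_lt hi) (one_ne_zero (α := F)) h2
  · intro hJ
    rw [S.unipotentRadical_eq G]
    exact S.xU_mem_genBy (S.simple_pos i hi).1 (S.simple_lt hi)
      (fun h => hJ ((S.inJ_simple_iff hi).1 h)) 1

include S in
/-- Unipotent radicals determine the nodes. -/
theorem nodes_eq_of_radical_eq (G : Geo D) {J K : Set ℕ}
    (h : D.unipotentRadical F K = D.unipotentRadical F J) {i : ℕ} (hi : i < D.rank) :
    i ∈ J ↔ i ∈ K := by
  have := S.simple_mem_radical_iff (F := F) G J hi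
  rw [← h, S.simple_mem_radical_iff (F := F) G K hi] at this
  exact (not_iff_not.1 this).symm

include S in
/-- `|P_J| = |H| q^N Σ_{w ∈ W_J} q^{l(w)}`. -/
theorem card_parabolic [Finite F] (J : Set ℕ) (W' : Finset (Equiv.Perm (Fin D.nroots))) (h1 : 1 ∈ W')
    (hclosed : ∀ q ∈ J, q < D.rank → ∀ w ∈ W', S.refl q * w ∈ W')
    (hword : ∀ w ∈ W', ∃ L : List ℕ, (∀ q ∈ L, q ∈ J ∧ q < D.rank) ∧ S.wprod L = w) :
    Nat.card (D.parabolicSubgroup F J) =
      Nat.card (D.diagonalSubgroup F) * Nat.card F ^ (D.nroots / 2) *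
        ∑ w ∈ W', Nat.card F ^ wlen w := by
  classical
  haveI := finite_GL (D := D) (F := F)
  set B := D.borelSubgroup F with hB
  have hBP : ∀ {x}, x ∈ B → x ∈ D.parabolicSubgroup F J := fun hx => Subgroup.mem_sup_left hx
  set X : Set (GL D.Idx F) := {g | ∃ b ∈ B, ∃ n ∈ D.monomialSubgroup F, ∃ w ∈ W', S.Acts n w ∧
    ∃ b' ∈ B, g = b * n * b'} with hX
  have hBX : ∀ b ∈ B, ∀ g ∈ X, b * g ∈ X := by
    rintro b hb g ⟨b₁, h1, n, hn, w, hw, hnw, b₂, h2, rfl⟩
    exact ⟨b * b₁, mul_mem hb h1, n, hn, w, hw, hnw, b₂, h2, by group⟩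
  have hsX : ∀ q ∈ J, q < D.rank → ∀ g ∈ X, S.nU (D.simple q) 1 * g ∈ X := by
    rintro q hqJ hq g ⟨b₁, h1, n, hn, w, hw, hnw, b₂, h2, rfl⟩
    rcases S.mul_mem_union hq h1 hn with ⟨c₁, hc₁, c₂, hc₂, e⟩ | ⟨c₁, hc₁, c₂, hc₂, e⟩
    · refine ⟨c₁, hc₁, _, mul_mem (S.nU_simple_mem_mono hq) hn, _, hclosed q hqJ hq w hw,
        S.acts_mul (S.acts_nU hq) hnw, c₂ * b₂, mul_mem hc₂ h2, ?_⟩
      rw [← mul_assoc, ← mul_assoc (S.nU (D.simple q) 1) b₁ n, e]; group
    · refine ⟨c₁, hc₁, n, hn, w, hw, hnw, c₂ * b₂, mul_mem hc₂ h2, ?_⟩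
      rw [← mul_assoc, ← mul_assoc (S.nU (D.simple q) 1) b₁ n, e]; group
  have hPX : ∀ g ∈ D.parabolicSubgroup F J, g ∈ X := by
    intro g hg
    have hg' : g ∈ Subgroup.closure ((B : Set (GL D.Idx F)) ∪ {g | ∃ j ∈ J, j < D.rank ∧
        (g : Matrix D.Idx D.Idx F) = D.nMat F (D.simple j) 1}) := by
      rw [Subgroup.closure_union, Subgroup.closure_eq]; exact hg
    clear hg
    induction hg' using Subgroup.closure_induction_left with
    | one => exact ⟨1, one_mem _, 1, one_mem _, 1, h1, S.acts_diag (one_mem _), 1, one_mem _, by group⟩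
    | mul_left x hx y _ ih =>
      rcases hx with hx | ⟨j, hjJ, hj, e⟩
      · exact hBX x hx y ih
      · rw [show x = S.nU (D.simple j) 1 from Units.ext (e.trans (S.coe_nU _ _).symm)]
        exact hsX j hjJ hj y ih
    | inv_mul_cancel x hx y _ ih =>
      rcases hx with hx | ⟨j, hjJ, hj, e⟩
      · exact hBX _ (inv_mem hx) y ih
      · rw [show x = S.nU (D.simple j) 1 from Units.ext (e.trans (S.coe_nU _ _).symm),
          show (S.nU (D.simple j) (1 : F))⁻¹ * y =
            (S.nU (D.simple j) 1 * S.nU (D.simple j) 1)⁻¹ * (S.nU (D.simple j) 1 * y) by group]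
        exact hBX _ (inv_mem (Subgroup.mem_sup_right (S.nU_sq_mem_diag hj))) _ (hsX j hjJ hj y ih)
  have hrep : ∀ w : W', ∃ n ∈ D.monomialSubgroup F, S.Acts n w.1 ∧ n ∈ D.parabolicSubgroup F J := by
    intro w
    obtain ⟨L, hL, e⟩ := hword w.1 w.2
    refine ⟨S.nw F L, S.nw_mem_mono fun q hq => (hL q hq).2, e ▸ S.acts_nw fun q hq => (hL q hq).2, ?_⟩
    rw [nw]
    refine Subgroup.list_prod_mem _ fun x hx => ?_
    obtain ⟨q, hq, rfl⟩ := List.mem_map.1 hx
    exact Subgroup.mem_sup_right (Subgroup.subset_closure ⟨q, (hL q hq).1, (hL q hq).2, S.coe_nU _ _⟩)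
  choose rep hrep1 hrep2 hrep3 using hrep
  have hUB : ∀ {v : Equiv.Perm (Fin D.nroots)} {y : GL D.Idx F}, y ∈ S.uminus F v → y ∈ B :=
    fun hy => Subgroup.mem_sup_left (S.genBy_le_pos _ hy)
  let f : (Σ w : W', B × S.uminus F w.1) → D.parabolicSubgroup F J := fun p =>
    ⟨(p.2.1 : GL D.Idx F) * rep p.1 * p.2.2,
      mul_mem (mul_mem (hBP p.2.1.2) (hrep3 p.1)) (hBP (hUB p.2.2.2))⟩
  have hf : Function.Bijective f := by
    refine ⟨fun p p' e => ?_, fun g => ?_⟩
    · obtain ⟨w, b, x⟩ := p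
      obtain ⟨w', b', x'⟩ := p'
      have e' : (b : GL D.Idx F) * rep w * x = b' * rep w' * x' := congrArg Subtype.val e
      have hd := S.cell_unique (hrep1 w) (hrep1 w') b.2 (hUB x.2) b'.2 (hUB x'.2) e'
      have hww : (w : Equiv.Perm (Fin D.nroots)) = w' := by
        refine S.acts_unique ?_ (hrep2 w')
        have h := S.acts_mul (hrep2 w) (S.acts_diag hd)
        rwa [mul_inv_cancel_left, mul_one] at h
      obtain rfl : w = w' := Subtype.ext hww
      obtain ⟨e1, e2⟩ := S.normal_form_unique (hrep2 w) b.2 b'.2 x.2 x'.2 e'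
      rw [Subtype.ext e1, Subtype.ext e2]
    · obtain ⟨b₁, hb₁, n, hn, w, hwW, hw, b₂, hb₂, e⟩ := hPX g g.2
      obtain ⟨h, hh, u, hu, rfl⟩ := S.mem_borel_right hb₂
      have hw' : S.Acts (n * h) w := by simpa using S.acts_mul hw (S.acts_diag hh)
      have hnh : n * h ∈ D.monomialSubgroup F := mul_mem hn (S.diag_le_mono hh)
      rw [S.posUnipotent_eq] at hu
      obtain ⟨a, ha, c, hc, rfl⟩ := S.exists_split (fun r => ¬ FlipsNeg w r) le_rfl hu
      have hc' : c ∈ S.uminus F w := S.genBy_mono (fun r _ _ h => not_not.1 h) hc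
      let w₀ : W' := ⟨w, hwW⟩
      have hd : n * h * (rep w₀)⁻¹ ∈ D.diagonalSubgroup F := by
        obtain ⟨v, -, hv⟩ := S.exists_acts (Subgroup.inv_mem _ (hrep1 w₀))
        have hv1 : w * v = 1 := by
          refine S.acts_unique (S.acts_mul (hrep2 w₀) hv) ?_
          rw [mul_inv_cancel]
          exact S.acts_diag (Subgroup.one_mem _)
        refine S.mem_diag_of_pos (mul_mem hnh (inv_mem (hrep1 w₀))) (S.acts_mul hw' hv) fun r hr => ?_
        rw [hv1]; exact hr
      refine ⟨⟨w₀, ⟨b₁ * (n * h * a * (n * h)⁻¹) * (n * h * (rep w₀)⁻¹), mul_mem (mul_mem hb₁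
        (Subgroup.mem_sup_left (S.notflips_conj_pos hw' ha))) (Subgroup.mem_sup_right hd)⟩, ⟨c, hc'⟩⟩,
        Subtype.ext ?_⟩
      show b₁ * (n * h * a * (n * h)⁻¹) * (n * h * (rep w₀)⁻¹) * rep w₀ * c = g
      rw [e]; group
  rw [← Nat.card_eq_of_bijective f hf, Nat.card_sigma]
  simp only [Nat.card_prod, hB, S.card_borel, fun w : W' => S.card_uminus (hrep2 w), ← Finset.mul_sum]
  rw [Finset.sum_coe_sort W' fun w => Nat.card F ^ wlen w]
  ring

end CfsgLib.Chev.Sys
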